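/-
S0518 (helper12's project): transport tools between a subgroup `P` and the model `Mdl`.
-/
import Cfsg.Agent.Lib.Helper12.KS.Defs

set_option autoImplicit false
open Cfsg Cfsg.Agent.Lib.Helper12.KS

namespace Cfsg.Agent.Lib.Helper6.KS

universe u

variable {G : Type u} [Group G] {P : Subgroup G}

theorem tr_comm (e : ↥P ≃* Mdl) (x y : ↥P) :
    e x * e y = e y * e x ↔ (x : G) * (y : G) = (y : G) * (x : G) := by
  constructor
  · intro h
    have h2 : x * y = y * x := e.injective (by simpa using h)
    exact congrArg Subtype.val h2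
  · intro h
    have h2 : x * y = y * x := Subtype.ext (by simpa using h)
    simpa using congrArg e h2

theorem tr_eq (e : ↥P ≃* Mdl) (x y : ↥P) : e x = e y ↔ (x : G) = (y : G) := by
  constructor
  · intro h
    exact congrArg Subtype.val (e.injective h)
  · intro h
    exact congrArg e (Subtype.ext h)

theorem tr_sq (e : ↥P ≃* Mdl) (x y : ↥P) : e x * e x = e y ↔ (x : G) * (x : G) = (y : G) := by
  rw [← map_mul, tr_eq]
  simp

theorem tr_one (e : ↥P ≃* Mdl) (x : ↥P) : e x = 1 ↔ (x : G) = 1 := by
  rw [← map_one e, tr_eq]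
  simp

/-- the model element `w`. -/
def w0 : Mdl := (Equiv.swap (0 : Fin 4) 2 * Equiv.swap (1 : Fin 4) 3, 1)

/-- the model element `c`. -/
def c0 : Mdl := (1, Multiplicative.ofAdd 1)

end Cfsg.Agent.Lib.Helper6.KS
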