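/-
S0518 (helper12's project), package [O5]: squares and centre of `T`.
-/
import Cfsg.Agent.Lib.Helper6.KS.Tr

set_option autoImplicit false
open Cfsg Cfsg.Agent.Lib.Helper12.KS

namespace Cfsg.Agent.Lib.Helper6.KS

universe u

set_option maxRecDepth 100000 in
theorem o5_a : inV w0.1 ∧ w0.2 = 1 := by decide +kernel
set_option maxRecDepth 100000 in
theorem o5_b : w0 ≠ 1 := by decide +kernel
set_option maxRecDepth 100000 in
theorem o5_c : ∀ m : Mdl, inD m.1 → m * w0 = w0 * m := by decide +kernel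
set_option maxRecDepth 100000 in
theorem o5_d : ∀ m : Mdl, inD m.1 → m * m = 1 ∨ m * m = w0 := by decide +kernel
set_option maxRecDepth 100000 in
theorem o5_e : ∃ m : Mdl, inD m.1 ∧ m * m = w0 := by decide +kernel
set_option maxRecDepth 100000 in
theorem o5_f : ∀ z : Mdl, inD z.1 → (∀ m : Mdl, inD m.1 → m * z = z * m) →
    z = 1 ∨ z = w0 ∨ z = c0 ∨ z = c0 * w0 := by decide +kernel

theorem pkgO5 : PkgO5.{u} := by
  intro G _ _ P T Q W c hs
  obtain ⟨e, hT, hQ, hW, hc⟩ := hs.ex
  have hcc : ((e.symm c0 : ↥P) : G) = c := (hc _).2 (by simp [c0])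
  refine ⟨((e.symm w0 : ↥P) : G), ?_, ?_, ?_, ?_, ?_, ?_⟩
  · exact (hW _).2 (by simpa using o5_a)
  · intro h
    have h1 := (tr_one e (e.symm w0)).2 h
    rw [MulEquiv.apply_symm_apply] at h1
    exact o5_b h1
  · intro t ht
    have h1 := o5_c (e ⟨t, hs.T_le ht⟩) ((hT _).1 ht)
    have h2 := (tr_comm e ⟨t, hs.T_le ht⟩ (e.symm w0)).1 (by simpa using h1)
    exact h2
  · intro t ht
    rcases o5_d (e ⟨t, hs.T_le ht⟩) ((hT _).1 ht) with h1 | h1
    · left
      have h2 : e (⟨t, hs.T_le ht⟩ * ⟨t, hs.T_le ht⟩) = 1 := by rw [map_mul]; exact h1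
      have h3 := (tr_one e _).1 h2
      exact h3
    · right
      have h2 := (tr_sq e ⟨t, hs.T_le ht⟩ (e.symm w0)).1 (by simpa using h1)
      exact h2
  · obtain ⟨m, hm, hmm⟩ := o5_e
    refine ⟨((e.symm m : ↥P) : G), (hT _).2 (by simpa using hm), ?_⟩
    exact (tr_sq e (e.symm m) (e.symm w0)).1 (by simpa using hmm)
  · intro z hz hzc
    have hzD := (hT ⟨z, hs.T_le hz⟩).1 hz
    have hcen : ∀ m : Mdl, inD m.1 → m * e ⟨z, hs.T_le hz⟩ = e ⟨z, hs.T_le hz⟩ * m := by
      intro m hm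
      have hmT : ((e.symm m : ↥P) : G) ∈ T := (hT _).2 (by simpa using hm)
      have h1 := hzc _ hmT
      have h2 := (tr_comm e (e.symm m) ⟨z, hs.T_le hz⟩).2 h1
      simpa using h2
    rcases o5_f _ hzD hcen with h1 | h1 | h1 | h1
    · left
      have := (tr_one e ⟨z, hs.T_le hz⟩).1 h1
      simpa using this
    · right; left
      have := (tr_eq e ⟨z, hs.T_le hz⟩ (e.symm w0)).1 (by simpa using h1)
      simpa using this
    · right; right; left
      have := (tr_eq e ⟨z, hs.T_le hz⟩ (e.symm c0)).1 (by simpa using h1)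
      rw [hcc] at this
      simpa using this
    · right; right; right
      have := (tr_eq e ⟨z, hs.T_le hz⟩ (e.symm c0 * e.symm w0)).1 (by simpa using h1)
      rw [← hcc]
      simpa using this

example : PkgO5.{u} := pkgO5
example : PkgO5.{0} := pkgO5

end Cfsg.Agent.Lib.Helper6.KS
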