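/-
S0518 (helper12's project), package [O6]: the second elementary abelian subgroup of order 8 of `T`.
-/
import Cfsg.Agent.Lib.Helper6.KS.Tr

set_option autoImplicit false
open Cfsg Cfsg.Agent.Lib.Helper12.KS

namespace Cfsg.Agent.Lib.Helper6.KS

universe u

/-- the second four-group of the standard dihedral group. -/
def inE (s : Equiv.Perm (Fin 4)) : Prop :=
  s = 1 ∨ s = Equiv.swap (0 : Fin 4) 2 ∨ s = Equiv.swap (1 : Fin 4) 3 ∨
    s = Equiv.swap (0 : Fin 4) 2 * Equiv.swap (1 : Fin 4) 3

instance : DecidablePred inE := fun s => by unfold inE; infer_instance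

set_option maxRecDepth 100000 in
theorem o6_mul : ∀ a b : Mdl, inE a.1 → inE b.1 → inE (a * b).1 := by decide +kernel
set_option maxRecDepth 100000 in
theorem o6_one : inE (1 : Mdl).1 := by decide +kernel
set_option maxRecDepth 100000 in
theorem o6_inv : ∀ a : Mdl, inE a.1 → inE a⁻¹.1 := by decide +kernel
set_option maxRecDepth 100000 in
theorem o6_D : ∀ a : Mdl, inE a.1 → inD a.1 := by decide +kernel
set_option maxRecDepth 100000 in
theorem o6_sq : ∀ a : Mdl, inE a.1 → a * a = 1 := by decide +kernel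
set_option maxRecDepth 100000 in
theorem o6_card : Fintype.card {m : Mdl // inE m.1} = 8 := by decide +kernel
set_option maxRecDepth 100000 in
theorem o6_ne : ∃ m : Mdl, inE m.1 ∧ ¬ inV m.1 := by decide +kernel
set_option maxRecDepth 100000 in
theorem o6_inv2 : ∀ m : Mdl, inD m.1 → m * m = 1 → inV m.1 ∨ inE m.1 := by decide +kernel

theorem pkgO6 : PkgO6.{u} := by
  intro G _ _ P T Q W c hs
  obtain ⟨e, hT, hQ, hW, hc⟩ := hs.ex
  let EP : Subgroup ↥P :=
    { carrier := {x | inE (e x).1}
      mul_mem' := by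
        intro a b ha hb
        simp only [Set.mem_setOf_eq, map_mul] at ha hb ⊢
        exact o6_mul _ _ ha hb
      one_mem' := by
        simp only [Set.mem_setOf_eq, map_one]
        exact o6_one
      inv_mem' := by
        intro a ha
        simp only [Set.mem_setOf_eq, map_inv] at ha ⊢
        exact o6_inv _ ha }
  have hEP : ∀ x : ↥P, x ∈ EP ↔ inE (e x).1 := fun x => Iff.rfl
  have hmemE : ∀ g : G, g ∈ EP.map P.subtype ↔ ∃ x : ↥P, inE (e x).1 ∧ (x : G) = g := by
    intro g
    rw [Subgroup.mem_map]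
    constructor
    · rintro ⟨x, hx, rfl⟩
      exact ⟨x, (hEP x).1 hx, rfl⟩
    · rintro ⟨x, hx, rfl⟩
      exact ⟨x, (hEP x).2 hx, rfl⟩
  have hcardE : Nat.card ↥(EP.map P.subtype) = 8 := by
    rw [Subgroup.card_map_of_injective P.subtype_injective]
    have h1 : Nat.card ↥EP = Nat.card {m : Mdl // inE m.1} :=
      Nat.card_congr (e.toEquiv.subtypeEquiv (fun x => Iff.rfl))
    rw [h1, Nat.card_eq_fintype_card, o6_card]
  have hET : EP.map P.subtype ≤ T := by
    intro g hg
    obtain ⟨x, hx, rfl⟩ := (hmemE g).1 hg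
    exact (hT x).2 (o6_D _ hx)
  have hEsq : ∀ a ∈ EP.map P.subtype, a * a = 1 := by
    intro g hg
    obtain ⟨x, hx, rfl⟩ := (hmemE g).1 hg
    have h1 := o6_sq _ hx
    have h2 : e (x * x) = 1 := by rw [map_mul]; exact h1
    have h3 := (tr_one e _).1 h2
    exact h3
  have hinv : ∀ t ∈ T, t * t = 1 → t ∈ Q ∨ t ∈ EP.map P.subtype := by
    intro t ht htt
    have h1 : e ⟨t, hs.T_le ht⟩ * e ⟨t, hs.T_le ht⟩ = 1 := by
      rw [← map_mul]
      exact (tr_one e _).2 htt
    rcases o6_inv2 _ ((hT _).1 ht) h1 with h2 | h2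
    · left
      exact (hQ ⟨t, hs.T_le ht⟩).2 h2
    · right
      exact (hmemE t).2 ⟨⟨t, hs.T_le ht⟩, h2, rfl⟩
  have hQfin : Nat.card ↥Q = 8 ∨ True := Or.inr trivial
  refine ⟨EP.map P.subtype, hET, hcardE, hEsq, ?_, hinv, ?_⟩
  · intro hEQ
    obtain ⟨m, hm, hmV⟩ := o6_ne
    have h1 : ((e.symm m : ↥P) : G) ∈ EP.map P.subtype :=
      (hmemE _).2 ⟨e.symm m, by simpa using hm, rfl⟩
    rw [hEQ] at h1
    have h2 := (hQ (e.symm m)).1 h1
    rw [MulEquiv.apply_symm_apply] at h2
    exact hmV h2
  · intro F hFT hFc hFsq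
    have hsub : (F : Set G) ⊆ (Q : Set G) ∪ ((EP.map P.subtype : Subgroup G) : Set G) := by
      intro x hx
      exact hinv x (hFT hx) (hFsq x hx)
    rcases SubgroupClass.subset_union.1 hsub with h | h
    · left
      -- cards: need card Q = 8
      have hQc : Nat.card ↥Q ≤ 8 := by
        -- Q inside T: all elements of Q are involutions in T; Q ⊆ ... use F ≤ Q and count via model
        have hQeq : Nat.card ↥Q = Nat.card {m : Mdl // inV m.1} := by
          have hQP : Q = (Q.subgroupOf P).map P.subtype := by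
            rw [Subgroup.map_subgroupOf_eq_of_le hs.Q_le]
          rw [hQP, Subgroup.card_map_of_injective P.subtype_injective]
          exact Nat.card_congr (e.toEquiv.subtypeEquiv (fun x => by
            rw [Subgroup.mem_subgroupOf]
            exact hQ x))
        rw [hQeq, Nat.card_eq_fintype_card]
        exact le_of_eq (by decide +kernel)
      exact Subgroup.eq_of_le_of_card_ge h (by omega)
    · right
      exact Subgroup.eq_of_le_of_card_ge h (by omega)

example : PkgO6.{u} := pkgO6
example : PkgO6.{0} := pkgO6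

end Cfsg.Agent.Lib.Helper6.KS
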