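/-
S0518 (helper12's project), package [O7]: a non-central element of `Q` has centralizer `Q` in `T`.
-/
import Cfsg.Agent.Lib.Helper6.KS.Tr

set_option autoImplicit false
open Cfsg Cfsg.Agent.Lib.Helper12.KS

namespace Cfsg.Agent.Lib.Helper6.KS

universe u

set_option maxRecDepth 100000 in
theorem o7_a : ∀ q : Mdl, inV q.1 → (∃ t : Mdl, inD t.1 ∧ t * q ≠ q * t) →
    ∀ t : Mdl, inD t.1 → t * q = q * t → inV t.1 := by decide +kernel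

theorem pkgO7 : PkgO7.{u} := by
  intro G _ _ P T Q W c hs
  obtain ⟨e, hT, hQ, hW, hc⟩ := hs.ex
  intro q hq hex t ht htq
  have hqV := (hQ ⟨q, hs.Q_le hq⟩).1 hq
  have hex' : ∃ m : Mdl, inD m.1 ∧ m * e ⟨q, hs.Q_le hq⟩ ≠ e ⟨q, hs.Q_le hq⟩ * m := by
    obtain ⟨s, hsT, hne⟩ := hex
    refine ⟨e ⟨s, hs.T_le hsT⟩, (hT _).1 hsT, ?_⟩
    intro h
    exact hne ((tr_comm e ⟨s, hs.T_le hsT⟩ ⟨q, hs.Q_le hq⟩).1 h)
  have h1 := o7_a _ hqV hex' (e ⟨t, hs.T_le ht⟩) ((hT _).1 ht)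
    ((tr_comm e ⟨t, hs.T_le ht⟩ ⟨q, hs.Q_le hq⟩).2 htq)
  exact (hQ ⟨t, hs.T_le ht⟩).2 h1

example : PkgO7.{u} := pkgO7
example : PkgO7.{0} := pkgO7

end Cfsg.Agent.Lib.Helper6.KS
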